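import Mathlib

/-!
The algebraic core of the Feit-Higman theorem: two operators with quadratic relations, a braid
relation of length `n`, and a tracial functional vanishing on short products.
-/

set_option autoImplicit false

namespace CfsgLib.FeitHigman

/-- The data. -/
structure Setup (R : Type*) [Ring R] [Algebra ℝ R] where
  a : R
  b : R
  q : ℕ
  r : ℕ
  τ : R →ₗ[ℝ] ℝ
  hq : 2 ≤ q
  hr : 2 ≤ r
  sq_a : a * a = ((q : ℝ) - 1) • a + ((q : ℝ)) • 1
  sq_b : b * b = ((r : ℝ) - 1) • b + ((r : ℝ)) • 1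
  τ_comm : ∀ x y, τ (x * y) = τ (y * x)
  τ_one : 0 < τ 1
  τ_one_rat : ∃ v : ℚ, τ 1 = v
  τ_idem : ∀ x : R, x * x = x → ∃ v : ℚ, τ x = v
  τ_a : τ a = 0
  τ_b : τ b = 0

namespace Setup

variable {R : Type*} [Ring R] [Algebra ℝ R] (S : Setup R)

/-- `qr`. -/
noncomputable def ρ2 : ℝ := (S.q : ℝ) * S.r
/-- `(q-1)(r-1)`. -/
noncomputable def c : ℝ := ((S.q : ℝ) - 1) * ((S.r : ℝ) - 1)
/-- Constant term of `D`. -/
noncomputable def P : ℝ := -((1 + (S.q : ℝ) * S.r) * ((S.q : ℝ) + S.r))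

/-- `a b`. -/
def T : R := S.a * S.b
/-- `b a`. -/
def T' : R := S.b * S.a

/-- The central element. -/
noncomputable def Z : R :=
  S.a * S.b + S.b * S.a - ((S.r : ℝ) - 1) • S.a - ((S.q : ℝ) - 1) • S.b + S.c • 1

theorem Z_eq : S.Z = S.T + (S.b - ((S.r : ℝ) - 1) • 1) * (S.a - ((S.q : ℝ) - 1) • 1) := by
  simp only [Z, T, c, sub_mul, mul_sub, smul_mul_assoc, one_mul, mul_smul_comm, mul_one]
  module

theorem Z_eq' : S.Z = S.T' + (S.a - ((S.q : ℝ) - 1) • 1) * (S.b - ((S.r : ℝ) - 1) • 1) := by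
  simp only [Z, T', c, sub_mul, mul_sub, smul_mul_assoc, one_mul, mul_smul_comm, mul_one]
  module

theorem a_inv_right : S.a * (S.a - ((S.q : ℝ) - 1) • 1) = (S.q : ℝ) • 1 := by
  rw [mul_sub, mul_smul_comm, mul_one, S.sq_a]; module

theorem a_inv_left : (S.a - ((S.q : ℝ) - 1) • 1) * S.a = (S.q : ℝ) • 1 := by
  rw [sub_mul, smul_mul_assoc, one_mul, S.sq_a]; module

theorem b_inv_right : S.b * (S.b - ((S.r : ℝ) - 1) • 1) = (S.r : ℝ) • 1 := by
  rw [mul_sub, mul_smul_comm, mul_one, S.sq_b]; module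

theorem b_inv_left : (S.b - ((S.r : ℝ) - 1) • 1) * S.b = (S.r : ℝ) • 1 := by
  rw [sub_mul, smul_mul_assoc, one_mul, S.sq_b]; module

theorem Z_mul_a : S.Z * S.a = S.a * S.b * S.a + (S.q : ℝ) • (S.b - ((S.r : ℝ) - 1) • 1) := by
  rw [Z_eq, add_mul, mul_assoc _ _ S.a, a_inv_left, mul_smul_comm, mul_one, T]

theorem a_mul_Z : S.a * S.Z = S.a * S.b * S.a + (S.q : ℝ) • (S.b - ((S.r : ℝ) - 1) • 1) := by
  rw [Z_eq', mul_add, ← mul_assoc S.a _ _, a_inv_right, smul_mul_assoc, one_mul, T', mul_assoc]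

theorem Z_mul_b : S.Z * S.b = S.b * S.a * S.b + (S.r : ℝ) • (S.a - ((S.q : ℝ) - 1) • 1) := by
  rw [Z_eq', add_mul, mul_assoc _ _ S.b, b_inv_left, mul_smul_comm, mul_one, T']

theorem b_mul_Z : S.b * S.Z = S.b * S.a * S.b + (S.r : ℝ) • (S.a - ((S.q : ℝ) - 1) • 1) := by
  rw [Z_eq, mul_add, ← mul_assoc S.b _ _, b_inv_right, smul_mul_assoc, one_mul, T, mul_assoc]

theorem comm_a : Commute S.Z S.a := (S.Z_mul_a).trans (S.a_mul_Z).symm
theorem comm_b : Commute S.Z S.b := (S.Z_mul_b).trans (S.b_mul_Z).symm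

theorem T_sq : S.T * S.T = S.Z * S.T - S.ρ2 • 1 := by
  rw [eq_sub_iff_add_eq, Z_eq, add_mul, T, mul_assoc (S.b - _), ← mul_assoc (S.a - _), a_inv_left,
    smul_mul_assoc, one_mul, mul_smul_comm, b_inv_left, smul_smul]
  rfl

theorem T'_sq : S.T' * S.T' = S.Z * S.T' - S.ρ2 • 1 := by
  rw [eq_sub_iff_add_eq, Z_eq', add_mul, T', mul_assoc (S.a - _), ← mul_assoc (S.b - _), b_inv_left,
    smul_mul_assoc, one_mul, mul_smul_comm, a_inv_left, smul_smul, mul_comm (S.r : ℝ)]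
  rfl

/-- Chebyshev-like polynomials in `Z`. -/
noncomputable def u : ℕ → R
  | 0 => 1
  | 1 => S.Z
  | k + 2 => S.Z * u (k + 1) - S.ρ2 • u k

/-- The same at a scalar. -/
noncomputable def v (z : ℝ) : ℕ → ℝ
  | 0 => 1
  | 1 => z
  | k + 2 => z * v z (k + 1) - S.ρ2 * v z k

/-- Divided differences. -/
noncomputable def w (z : ℝ) : ℕ → R
  | 0 => 0
  | 1 => 1
  | k + 2 => z • w z (k + 1) - S.ρ2 • w z k + S.u (k + 1)

/-- Divided differences at a scalar. -/
noncomputable def dw (z : ℝ) : ℕ → ℝ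
  | 0 => 0
  | 1 => 1
  | k + 2 => z * dw z (k + 1) - S.ρ2 * dw z k + S.v z (k + 1)

theorem u_comm (x : R) (hx : Commute S.Z x) (k : ℕ) : Commute (S.u k) x := by
  induction k using Nat.twoStepInduction with
  | zero => exact Commute.one_left x
  | one => exact hx
  | more k h1 h2 =>
    rw [u]
    exact (hx.mul_left h2).sub_left (h1.smul_left _)

theorem pow_eq (x : R) (hx : x * x = S.Z * x - S.ρ2 • 1) :
    ∀ k, x ^ (k + 2) = S.u (k + 1) * x - S.ρ2 • S.u k := by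
  intro k
  induction k with
  | zero => rw [pow_two, hx]; rfl
  | succ k ih =>
    rw [pow_succ, ih, sub_mul, mul_assoc, hx, mul_sub, ← mul_assoc, smul_mul_assoc, mul_smul_comm, mul_one]
    rw [show S.u (k + 1 + 1) = S.Z * S.u (k + 1) - S.ρ2 • S.u k from rfl, sub_mul, smul_mul_assoc]
    rw [(S.u_comm S.Z (Commute.refl _) (k + 1)).eq]
    abel

/-- `D(Z)`. -/
noncomputable def D : R := S.Z * S.Z - S.c • S.Z + S.P • 1

/-- `D(z)`. -/
noncomputable def d (z : ℝ) : ℝ := z * z - S.c * z + S.P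

theorem commutator_sq :
    (S.a * S.b - S.b * S.a) * (S.a * S.b - S.b * S.a) = S.D := by
  have e1 : S.a * S.b * (S.b * S.a)
      = ((S.r : ℝ) - 1) • (S.a * S.b * S.a) + (S.r : ℝ) • (S.a * S.a) := by
    rw [← mul_assoc, mul_assoc S.a S.b S.b, S.sq_b, mul_add, add_mul, mul_smul_comm, mul_smul_comm,
      mul_one, smul_mul_assoc, smul_mul_assoc]
  have e2 : S.b * S.a * (S.a * S.b)
      = ((S.q : ℝ) - 1) • (S.b * S.a * S.b) + (S.q : ℝ) • (S.b * S.b) := by
    rw [← mul_assoc, mul_assoc S.b S.a S.a, S.sq_a, mul_add, add_mul, mul_smul_comm, mul_smul_comm,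
      mul_one, smul_mul_assoc, smul_mul_assoc]
  have hT := S.T_sq
  have hT' := S.T'_sq
  rw [T] at hT
  rw [T'] at hT'
  have e3 : S.a * S.b * S.a = S.Z * S.a - (S.q : ℝ) • (S.b - ((S.r : ℝ) - 1) • 1) :=
    eq_sub_of_add_eq S.Z_mul_a.symm
  have e4 : S.b * S.a * S.b = S.Z * S.b - (S.r : ℝ) • (S.a - ((S.q : ℝ) - 1) • 1) :=
    eq_sub_of_add_eq S.Z_mul_b.symm
  have hZ : S.Z * S.Z = S.Z * (S.a * S.b) + S.Z * (S.b * S.a) - ((S.r : ℝ) - 1) • (S.Z * S.a)
      - ((S.q : ℝ) - 1) • (S.Z * S.b) + S.c • S.Z := by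
    conv_lhs => arg 2; rw [Z]
    simp only [mul_add, mul_sub, mul_smul_comm, mul_one]
  rw [sub_mul, mul_sub, mul_sub, hT, hT', e1, e2, e3, e4, S.sq_a, S.sq_b, D, hZ, P, ρ2]
  module

theorem D_comm (x : R) (hx : Commute S.Z x) : Commute S.D x :=
  ((hx.mul_left hx).sub_left (hx.smul_left _)).add_left ((Commute.one_left x).smul_left _)

/-- The vanishing hypotheses up to index `K`. -/
def Vanish (K : ℕ) : Prop :=
  (∀ k, 1 ≤ k → k ≤ K + 1 → S.τ (S.T ^ k) = 0) ∧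
  (∀ k, 1 ≤ k → k ≤ K + 1 → S.τ (S.a * S.T ^ k) = 0) ∧
  ∀ k, 1 ≤ k → k ≤ K + 1 → S.τ (S.T ^ k * S.b) = 0

/-- `τ(uₖ)`. -/
noncomputable def B (k : ℕ) : ℝ := S.τ (S.u k)
/-- `τ(uₖ a)`. -/
noncomputable def pa (k : ℕ) : ℝ := S.τ (S.u k * S.a)
/-- `τ(uₖ b)`. -/
noncomputable def pb (k : ℕ) : ℝ := S.τ (S.u k * S.b)

theorem τ_T_b : S.T * S.b = ((S.r : ℝ) - 1) • S.T + (S.r : ℝ) • S.a := by
  rw [T, mul_assoc, S.sq_b, mul_add, mul_smul_comm, mul_smul_comm, mul_one]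

theorem τ_a_T : S.a * S.T = ((S.q : ℝ) - 1) • S.T + (S.q : ℝ) • S.b := by
  rw [T, ← mul_assoc, S.sq_a, add_mul, smul_mul_assoc, smul_mul_assoc, one_mul]

theorem τ_uT {K : ℕ} (hV : S.Vanish K) {k : ℕ} (hk : k + 1 ≤ K) :
    S.τ (S.u (k + 1) * S.T) = S.ρ2 * S.B k := by
  have := hV.1 (k + 2) (by omega) (by omega)
  rw [S.pow_eq S.T S.T_sq k, map_sub, map_smul, smul_eq_mul, sub_eq_zero] at this
  exact this

theorem pb_succ {K : ℕ} (hV : S.Vanish K) {k : ℕ} (hk : k + 1 ≤ K) :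
    S.pb (k + 1) = (S.r : ℝ) * S.pa k - ((S.q : ℝ) - 1) * S.r * S.B k := by
  have := hV.2.1 (k + 2) (by omega) (by omega)
  rw [S.pow_eq S.T S.T_sq k, mul_sub, ← mul_assoc, ← (S.u_comm S.a S.comm_a (k + 1)).eq, mul_assoc,
    τ_a_T, mul_add, mul_smul_comm, mul_smul_comm, mul_smul_comm, ← (S.u_comm S.a S.comm_a k).eq] at this
  simp only [map_sub, map_add, map_smul, smul_eq_mul, S.τ_uT hV hk] at this
  have hq : (S.q : ℝ) ≠ 0 := by
    have := S.hq
    positivity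
  apply mul_left_cancel₀ hq
  simp only [pb, pa, ρ2] at this ⊢
  linear_combination this

theorem pa_succ {K : ℕ} (hV : S.Vanish K) {k : ℕ} (hk : k + 1 ≤ K) :
    S.pa (k + 1) = (S.q : ℝ) * S.pb k - ((S.r : ℝ) - 1) * S.q * S.B k := by
  have := hV.2.2 (k + 2) (by omega) (by omega)
  rw [S.pow_eq S.T S.T_sq k, sub_mul, mul_assoc, τ_T_b, mul_add, mul_smul_comm, mul_smul_comm,
    smul_mul_assoc] at this
  simp only [map_sub, map_add, map_smul, smul_eq_mul, S.τ_uT hV hk] at this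
  have hr : (S.r : ℝ) ≠ 0 := by
    have := S.hr
    positivity
  apply mul_left_cancel₀ hr
  simp only [pb, pa, ρ2] at this ⊢
  linear_combination this

theorem τ_uZ (k : ℕ) : S.τ (S.u k * S.Z) = 2 * S.τ (S.u k * S.T)
    - ((S.r : ℝ) - 1) * S.pa k - ((S.q : ℝ) - 1) * S.pb k + S.c * S.B k := by
  have hcyc : S.τ (S.u k * (S.b * S.a)) = S.τ (S.u k * (S.a * S.b)) := by
    rw [← mul_assoc, S.τ_comm, ← mul_assoc, ← (S.u_comm S.a S.comm_a k).eq, mul_assoc]
  conv_lhs => rw [Z]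
  simp only [mul_add, mul_sub, mul_smul_comm, mul_one, map_add, map_sub, map_smul, smul_eq_mul, hcyc,
    pa, pb, B, T]
  ring

theorem B_zero_pos : S.B 0 = S.τ 1 := rfl

theorem pa_zero : S.pa 0 = 0 := by simp [pa, u, S.τ_a]
theorem pb_zero : S.pb 0 = 0 := by simp [pb, u, S.τ_b]

theorem τ_T_one {K : ℕ} (hV : S.Vanish K) : S.τ S.T = 0 := by
  simpa using hV.1 1 le_rfl (by omega)

theorem B_one {K : ℕ} (hV : S.Vanish K) : S.B 1 = S.c * S.B 0 := by
  have := S.τ_uZ 0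
  rw [show S.u 0 = (1 : R) from rfl, one_mul, one_mul, S.τ_T_one hV, pa_zero, pb_zero] at this
  rw [B, show S.u 1 = S.Z from rfl, this]
  ring

theorem B_succ {K : ℕ} (hV : S.Vanish K) {k : ℕ} (hk : k + 1 ≤ K) :
    S.B (k + 2) = S.ρ2 * S.B k + S.c * S.B (k + 1) - ((S.r : ℝ) - 1) * S.pa (k + 1)
      - ((S.q : ℝ) - 1) * S.pb (k + 1) := by
  have h := S.τ_uZ (k + 1)
  rw [S.τ_uT hV hk, S.τ_comm] at h
  show S.τ (S.Z * S.u (k + 1) - S.ρ2 • S.u k) = _
  rw [map_sub, map_smul, smul_eq_mul, h]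
  simp only [B]
  ring

theorem τ_D {K : ℕ} (hV : S.Vanish K) (hK : 1 ≤ K) : S.τ S.D = -2 * S.ρ2 * S.B 0 := by
  have h2 := S.B_succ hV (k := 0) hK
  rw [S.pa_succ hV (k := 0) hK, S.pb_succ hV (k := 0) hK, pa_zero, pb_zero, S.B_one hV] at h2
  have e : S.D = S.u 2 - S.c • S.u 1 + (S.ρ2 + S.P) • S.u 0 := by
    show S.D = S.Z * S.Z - S.ρ2 • (1 : R) - S.c • S.Z + (S.ρ2 + S.P) • (1 : R)
    rw [D]; module
  rw [e, map_add, map_sub, map_smul, map_smul]
  show S.B 2 - S.c • S.B 1 + (S.ρ2 + S.P) • S.B 0 = _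
  rw [h2, S.B_one hV]
  simp only [smul_eq_mul, ρ2, c, P]
  ring

theorem τ_D_u {K : ℕ} (hV : S.Vanish K) {i : ℕ} (hi : i + 2 ≤ K) : S.τ (S.D * S.u (i + 1)) = 0 := by
  have hZu : ∀ k, S.Z * S.u (k + 1) = S.u (k + 2) + S.ρ2 • S.u k := fun k => by
    show _ = S.Z * S.u (k + 1) - S.ρ2 • S.u k + _
    abel
  have e : S.D * S.u (i + 1) = S.Z * (S.Z * S.u (i + 1)) - S.c • (S.Z * S.u (i + 1))
      + S.P • S.u (i + 1) := by
    rw [D, add_mul, sub_mul, mul_assoc, smul_mul_assoc, smul_mul_assoc, one_mul]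
  cases i with
  | zero =>
    have h2 := S.B_succ hV (k := 0) (by omega)
    have h3 := S.B_succ hV (k := 1) (by omega)
    rw [S.pa_succ hV (k := 1) (by omega), S.pb_succ hV (k := 1) (by omega),
      S.pa_succ hV (k := 0) (by omega), S.pb_succ hV (k := 0) (by omega), pa_zero, pb_zero] at h3
    rw [S.pa_succ hV (k := 0) (by omega), S.pb_succ hV (k := 0) (by omega), pa_zero, pb_zero] at h2
    rw [e, hZu 0, mul_add, mul_smul_comm, hZu 1]
    have e0 : S.Z * S.u 0 = S.u 1 := mul_one _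
    rw [e0]
    simp only [map_add, map_sub, map_smul, smul_eq_mul]
    show S.B 3 + S.ρ2 * S.B 1 + S.ρ2 * S.B 1 - S.c * (S.B 2 + S.ρ2 * S.B 0) + S.P * S.B 1 = 0
    rw [S.B_one hV] at *
    simp only [ρ2, c, P] at *
    linear_combination h3
  | succ i =>
    have h1 := S.B_succ hV (k := i + 2) (by omega)
    have h0 := S.B_succ hV (k := i) (by omega)
    rw [S.pa_succ hV (k := i + 2) (by omega), S.pb_succ hV (k := i + 2) (by omega),
      S.pa_succ hV (k := i + 1) (by omega), S.pb_succ hV (k := i + 1) (by omega)] at h1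
    rw [e, hZu (i + 1), mul_add, mul_smul_comm, hZu (i + 2), hZu i]
    simp only [map_add, map_sub, map_smul, smul_eq_mul]
    show S.B (i + 4) + S.ρ2 * S.B (i + 2) + S.ρ2 * (S.B (i + 2) + S.ρ2 * S.B i)
      - S.c * (S.B (i + 3) + S.ρ2 * S.B (i + 1)) + S.P * S.B (i + 2) = 0
    simp only [ρ2, c, P] at *
    linear_combination h1 - (S.q : ℝ) * (S.r : ℝ) * h0

theorem τ_D_w {K : ℕ} (hV : S.Vanish K) (hK : 1 ≤ K) (z : ℝ) :
    ∀ k, k ≤ K → S.τ (S.D * S.w z (k + 1 - 1)) = if k = 0 then 0 else -2 * S.ρ2 * S.B 0 * S.v z (k - 1) := by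
  intro k
  induction k using Nat.twoStepInduction with
  | zero => intro _; simp [w]
  | one => intro _; simp [w, v, S.τ_D hV hK]
  | more k h1 h2 =>
    intro hk
    simp only [Nat.add_sub_cancel] at h1 h2 ⊢
    show S.τ (S.D * (z • S.w z (k + 1) - S.ρ2 • S.w z k + S.u (k + 1))) = _
    rw [mul_add, mul_sub, mul_smul_comm, mul_smul_comm]
    simp only [map_add, map_sub, map_smul, smul_eq_mul]
    rw [h1 (by omega), h2 (by omega), S.τ_D_u hV (i := k) hk]
    cases k with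
    | zero => simp [v]; ring
    | succ k => simp [v]; ring

theorem Z_sub_mul_w (z : ℝ) : ∀ k, (S.Z - z • 1) * S.w z k = S.u k - S.v z k • (1 : R) := by
  intro k
  induction k using Nat.twoStepInduction with
  | zero => simp [w, u, v]
  | one => simp [w, u, v]
  | more k h1 h2 =>
    show (S.Z - z • 1) * (z • S.w z (k + 1) - S.ρ2 • S.w z k + S.u (k + 1)) = _
    rw [mul_add, mul_sub, mul_smul_comm, mul_smul_comm, h1, h2, sub_mul, smul_mul_assoc, one_mul]
    show _ = S.Z * S.u (k + 1) - S.ρ2 • S.u k - (z * S.v z (k + 1) - S.ρ2 * S.v z k) • (1 : R)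
    module

theorem u_mul_eigen {g : R} {z : ℝ} (hg : S.Z * g = z • g) : ∀ k, S.u k * g = S.v z k • g := by
  intro k
  induction k using Nat.twoStepInduction with
  | zero => simp [u, v]
  | one => simpa [u, v] using hg
  | more k h1 h2 =>
    show (S.Z * S.u (k + 1) - S.ρ2 • S.u k) * g = (z * S.v z (k + 1) - S.ρ2 * S.v z k) • g
    rw [sub_mul, mul_assoc, h2, mul_smul_comm, hg, smul_mul_assoc, h1]
    module

theorem w_mul_eigen {g : R} {z : ℝ} (hg : S.Z * g = z • g) : ∀ k, S.w z k * g = S.dw z k • g := by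
  intro k
  induction k using Nat.twoStepInduction with
  | zero => simp [w, dw]
  | one => simp [w, dw]
  | more k h1 h2 =>
    show (z • S.w z (k + 1) - S.ρ2 • S.w z k + S.u (k + 1)) * g
      = (z * S.dw z (k + 1) - S.ρ2 * S.dw z k + S.v z (k + 1)) • g
    rw [add_mul, sub_mul, smul_mul_assoc, smul_mul_assoc, h1, h2, S.u_mul_eigen hg]
    module

theorem w_comm (z : ℝ) (x : R) (hx : Commute S.Z x) : ∀ k, Commute (S.w z k) x := by
  intro k
  induction k using Nat.twoStepInduction with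
  | zero => exact Commute.zero_left x
  | one => exact Commute.one_left x
  | more k h1 h2 =>
    rw [w]
    exact ((h2.smul_left _).sub_left (h1.smul_left _)).add_left (S.u_comm x hx _)

/-- The rationality statement: at a root `z` of `V = uₘ + e uₘ₋₁` killing the commutator. -/
theorem rat_of_root {K m : ℕ} (hV : S.Vanish K) (hm : 1 ≤ m) (hmK : m ≤ K) (e : ℝ) (z : ℝ)
    (hroot : S.v z m + e * S.v z (m - 1) = 0)
    (hkill : (S.u m + e • S.u (m - 1)) * (S.a * S.b - S.b * S.a) = 0)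
    (hd : S.d z ≠ 0) (hdw : S.dw z m + e * S.dw z (m - 1) ≠ 0) :
    ∃ x : ℚ, S.ρ2 * (S.v z (m - 1) + e * (if m = 1 then 0 else S.v z (m - 2)))
      / (S.d z * (S.dw z m + e * S.dw z (m - 1))) = x := by
  obtain ⟨m, rfl⟩ : ∃ j, m = j + 1 := ⟨m - 1, by omega⟩
  simp only [Nat.add_sub_cancel] at *
  set wV := S.w z (m + 1) + e • S.w z m with hwV
  set g := S.D * wV with hg
  have hdV : (S.Z - z • 1) * wV = S.u (m + 1) + e • S.u m := by
    rw [hwV, mul_add, mul_smul_comm, Z_sub_mul_w, Z_sub_mul_w]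
    calc _ = S.u (m + 1) + e • S.u m - (S.v z (m + 1) + e * S.v z m) • (1 : R) := by module
      _ = _ := by rw [hroot, zero_smul, sub_zero]
  have hzero : (S.Z - z • 1) * g = 0 := by
    have hc : Commute S.D (S.Z - z • 1) := S.D_comm _
      ((Commute.refl S.Z).sub_right ((Commute.one_right S.Z).smul_right z))
    rw [hg, ← mul_assoc, ← hc.eq, mul_assoc, hdV, ← S.commutator_sq]
    have hVc : Commute (S.u (m + 1) + e • S.u m) (S.a * S.b - S.b * S.a) :=
      (S.u_comm _ ((S.comm_a.mul_right S.comm_b).sub_right (S.comm_b.mul_right S.comm_a)) _).add_left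
        ((S.u_comm _ ((S.comm_a.mul_right S.comm_b).sub_right (S.comm_b.mul_right S.comm_a)) _).smul_left _)
    rw [mul_assoc, ← hVc.eq, hkill, mul_zero]
  have hZg : S.Z * g = z • g := by
    rw [sub_mul, smul_mul_assoc, one_mul, sub_eq_zero] at hzero
    exact hzero
  set γ := S.d z * (S.dw z (m + 1) + e * S.dw z m) with hγ
  have hgg : g * g = γ • g := by
    have h1 : wV * g = (S.dw z (m + 1) + e * S.dw z m) • g := by
      rw [hwV, add_mul, smul_mul_assoc, S.w_mul_eigen hZg, S.w_mul_eigen hZg]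
      module
    calc g * g = S.D * (wV * g) := by rw [hg]; simp only [mul_assoc]
      _ = _ := by
        rw [h1, mul_smul_comm, D, add_mul, sub_mul, mul_assoc, hZg, mul_smul_comm, hZg,
          smul_mul_assoc, hZg, smul_mul_assoc, one_mul, hγ, d]
        module
  have hγ0 : γ ≠ 0 := mul_ne_zero hd hdw
  obtain ⟨x, hx⟩ := S.τ_idem (γ⁻¹ • g) (by
    rw [smul_mul_assoc, mul_smul_comm, hgg, smul_smul, smul_smul]
    congr 1
    field_simp)
  obtain ⟨N, hN⟩ := S.τ_one_rat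
  have hN0 : (N : ℝ) ≠ 0 := by rw [← hN]; exact S.τ_one.ne'
  have hτg : S.τ g = -2 * S.ρ2 * S.B 0 * (S.v z m + e * (if m + 1 = 1 then 0 else S.v z (m - 1))) := by
    have h1 := S.τ_D_w hV (by omega) z (m + 1) hmK
    have h2 := S.τ_D_w hV (by omega) z m (by omega)
    simp only [Nat.add_sub_cancel] at h1 h2
    rw [hg, hwV, mul_add, mul_smul_comm, map_add, map_smul, h1, h2, smul_eq_mul]
    rcases Nat.eq_zero_or_pos m with rfl | hm0
    · simp
    · rw [if_neg (by omega), if_neg (by omega), if_neg (by omega)]; ring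
  rw [map_smul, hτg, smul_eq_mul, B_zero_pos, hN] at hx
  refine ⟨-x / (2 * N), ?_⟩
  rw [show m + 1 - 2 = m - 1 from by omega]
  push_cast
  rcases Nat.eq_zero_or_pos m with rfl | hm0
  · simp only [Nat.zero_add, if_true, mul_zero, add_zero] at hx ⊢
    rw [← hx]
    field_simp
  · rw [if_neg (by omega)] at hx
    rw [if_neg (by omega), ← hx]
    field_simp

end Setup

end CfsgLib.FeitHigman
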