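import Cfsg.Agent.FeitHigman.Core

/-!
The arithmetic part of the Feit-Higman theorem.
-/

set_option autoImplicit false

namespace CfsgLib.FeitHigman

open Real

namespace Setup

variable {R : Type*} [Ring R] [Algebra ℝ R] (S : Setup R)

/-- `√(qr)`. -/
noncomputable def ρ : ℝ := Real.sqrt S.ρ2

theorem ρ2_pos : 0 < S.ρ2 := by
  have := S.hq
  have := S.hr
  unfold ρ2
  positivity

theorem ρ_pos : 0 < S.ρ := Real.sqrt_pos.2 S.ρ2_pos
theorem ρ_sq : S.ρ * S.ρ = S.ρ2 := Real.mul_self_sqrt S.ρ2_pos.le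

/-- The evaluation point. -/
noncomputable def zpt (φ : ℝ) : ℝ := 2 * S.ρ * cos φ

theorem v_mul_sin (φ : ℝ) : ∀ k : ℕ, S.v (S.zpt φ) k * sin φ = S.ρ ^ k * sin ((k + 1 : ℝ) * φ) := by
  intro k
  induction k using Nat.twoStepInduction with
  | zero => simp [v]
  | one =>
    simp only [v, zpt, pow_one, Nat.cast_one]
    rw [show (1 + 1 : ℝ) * φ = 2 * φ from by ring, sin_two_mul]
    ring
  | more k h1 h2 =>
    simp only [v, zpt] at *
    push_cast at *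
    rw [show ((k : ℝ) + 2 + 1) * φ = ((k : ℝ) + 1 + 1) * φ + φ from by ring, sin_add]
    rw [show ((k : ℝ) + 1) * φ = ((k : ℝ) + 1 + 1) * φ - φ from by ring, sin_sub] at h1
    linear_combination (2 * S.ρ * cos φ) * h2 - S.ρ2 * h1
      + (sin ((↑k + 1 + 1) * φ) * cos φ - cos ((↑k + 1 + 1) * φ) * sin φ) * S.ρ ^ k * S.ρ_sq

theorem dw_mul_sin (φ : ℝ) : ∀ k : ℕ, S.dw (S.zpt φ) k * (2 * sin φ ^ 3) * S.ρ
    = S.ρ ^ k * (cos φ * sin ((k + 1 : ℝ) * φ) - (k + 1 : ℝ) * sin φ * cos ((k + 1 : ℝ) * φ)) := by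
  intro k
  induction k using Nat.twoStepInduction with
  | zero => simp [dw]; ring
  | one =>
    simp only [dw, pow_one, Nat.cast_one]
    rw [show (1 + 1 : ℝ) * φ = 2 * φ from by ring, sin_two_mul, cos_two_mul]
    linear_combination (2 * S.ρ * sin φ) * (sin_sq_add_cos_sq φ)
  | more k h1 h2 =>
    have hv := S.v_mul_sin φ (k + 1)
    simp only [dw, zpt] at *
    push_cast at *
    have e3 : ((k : ℝ) + 2 + 1) * φ = ((k : ℝ) + 1 + 1) * φ + φ := by ring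
    rw [e3, sin_add, cos_add]
    rw [show ((k : ℝ) + 1) * φ = ((k : ℝ) + 1 + 1) * φ - φ from by ring, sin_sub, cos_sub] at h1
    linear_combination (2 * S.ρ * cos φ) * h2 - S.ρ2 * h1 + (2 * sin φ ^ 2 * S.ρ) * hv
      + (cos φ * (sin ((↑k + 1 + 1) * φ) * cos φ - cos ((↑k + 1 + 1) * φ) * sin φ)
        - (↑k + 1) * sin φ * (cos ((↑k + 1 + 1) * φ) * cos φ + sin ((↑k + 1 + 1) * φ) * sin φ))
        * (S.ρ ^ k) * S.ρ_sq

theorem d_neg {φ : ℝ} (hs : 0 < sin φ) : S.d (S.zpt φ) < 0 := by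
  have hq : (2 : ℝ) ≤ S.q := by exact_mod_cast S.hq
  have hr : (2 : ℝ) ≤ S.r := by exact_mod_cast S.hr
  have hρ := S.ρ_pos
  have hρ2 := S.ρ_sq
  rw [ρ2] at hρ2
  have hc1 : cos φ < 1 := by nlinarith [sin_sq_add_cos_sq φ]
  have hc2 : -1 < cos φ := by nlinarith [sin_sq_add_cos_sq φ]
  have h1 : S.zpt φ < 1 + (S.q : ℝ) * S.r := by
    rw [zpt]; nlinarith [sq_nonneg (S.ρ - 1), mul_lt_mul_of_pos_left hc1 hρ]
  have h2 : -((S.q : ℝ) + S.r) < S.zpt φ := by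
    rw [zpt]; nlinarith [sq_nonneg ((S.q : ℝ) - S.r), mul_lt_mul_of_pos_left hc2 hρ,
      sq_nonneg ((S.q : ℝ) + S.r - 2 * S.ρ)]
  have : S.d (S.zpt φ) = (S.zpt φ - (1 + (S.q : ℝ) * S.r)) * (S.zpt φ + ((S.q : ℝ) + S.r)) := by
    simp only [d, c, P]; ring
  rw [this]
  exact mul_neg_of_neg_of_pos (by linarith) (by linarith)

/-- The quotient whose rationality we exploit. -/
noncomputable def ratio (z : ℝ) : ℝ := (4 * S.ρ2 - z * z) / S.d z

theorem four_sub (φ : ℝ) : 4 * S.ρ2 - S.zpt φ * S.zpt φ = 4 * S.ρ2 * sin φ ^ 2 := by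
  rw [zpt]
  linear_combination (-4 * cos φ ^ 2) * S.ρ_sq + (-4 * S.ρ2) * sin_sq_add_cos_sq φ

theorem kill_even {h : ℕ} (hh : 2 ≤ h) (hbraid : S.T ^ h = S.T' ^ h) :
    S.u (h - 1) * (S.a * S.b - S.b * S.a) = 0 := by
  obtain ⟨k, rfl⟩ : ∃ k, h = k + 2 := ⟨h - 2, by omega⟩
  rw [S.pow_eq S.T S.T_sq k, S.pow_eq S.T' S.T'_sq k, sub_left_inj, ← sub_eq_zero, ← mul_sub] at hbraid
  exact hbraid

theorem ratio_even {h j : ℕ} (hh : 2 ≤ h) (hV : S.Vanish (h - 1)) (hbraid : S.T ^ h = S.T' ^ h)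
    (hj : 1 ≤ j) (hjh : j < h) : ∃ x : ℚ, S.ratio (S.zpt (π * j / h)) = x := by
  set φ := π * (j : ℝ) / h with hφ
  have hh0 : (0 : ℝ) < h := by exact_mod_cast (by omega : 0 < h)
  have hs : 0 < sin φ := by
    refine sin_pos_of_pos_of_lt_pi (by
      have : (0 : ℝ) < j := by exact_mod_cast hj
      positivity) ?_
    rw [hφ, div_lt_iff₀ hh0]
    exact mul_lt_mul_of_pos_left (by exact_mod_cast hjh) pi_pos
  have hhφ : (h : ℝ) * φ = j * π := by rw [hφ]; field_simp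
  have hS : sin ((h : ℝ) * φ) = 0 := by rw [hhφ]; exact sin_nat_mul_pi j
  have hC : cos ((h : ℝ) * φ) ≠ 0 := fun h0 => by
    simpa [hS, h0] using sin_sq_add_cos_sq ((h : ℝ) * φ)
  obtain ⟨k, rfl⟩ : ∃ k, h = k + 2 := ⟨h - 2, by omega⟩
  simp only [show k + 2 - 1 = k + 1 from rfl] at hV
  push_cast at hS hC hh0
  have hv := S.v_mul_sin φ (k + 1)
  have hv' := S.v_mul_sin φ k
  have hdw := S.dw_mul_sin φ (k + 1)
  push_cast at hv hv' hdw
  rw [show ((k : ℝ) + 1 + 1) = k + 2 from by ring, hS] at hv hdw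
  rw [show ((k : ℝ) + 1) * φ = ((k : ℝ) + 2) * φ - φ from by ring, sin_sub, hS] at hv'
  have hρ := S.ρ_pos
  have hroot : S.v (S.zpt φ) (k + 1) = 0 := by
    rcases mul_eq_zero.1 (show S.v (S.zpt φ) (k + 1) * sin φ = 0 by rw [hv, mul_zero]) with h0 | h0
    · exact h0
    · exact absurd h0 hs.ne'
  have hdw' : S.dw (S.zpt φ) (k + 1) * (2 * sin φ ^ 2)
      = -(S.ρ ^ k * ((k : ℝ) + 2) * cos (((k : ℝ) + 2) * φ)) := by
    apply mul_right_cancel₀ (mul_ne_zero hs.ne' hρ.ne')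
    rw [pow_succ] at hdw
    linear_combination hdw
  have hdwne : S.dw (S.zpt φ) (k + 1) ≠ 0 := by
    intro h0
    rw [h0, zero_mul] at hdw'
    have h3 : S.ρ ^ k * ((k : ℝ) + 2) * cos (((k : ℝ) + 2) * φ) = 0 := by linarith
    simp [hρ.ne', hC, hh0.ne'] at h3
  have hvk : S.v (S.zpt φ) k = -(S.ρ ^ k * cos (((k : ℝ) + 2) * φ)) := by
    apply mul_right_cancel₀ hs.ne'
    linear_combination hv'
  obtain ⟨x, hx⟩ := S.rat_of_root hV (m := k + 1) (by omega) le_rfl 0 (S.zpt φ)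
    (by simp [hroot]) (by
      simp only [zero_smul, add_zero]
      exact S.kill_even (by omega) hbraid) (S.d_neg hs).ne (by simpa using hdwne)
  refine ⟨2 * ((k : ℚ) + 2) * x, ?_⟩
  simp only [zero_mul, add_zero, Nat.add_sub_cancel] at hx
  have hd := (S.d_neg hs).ne
  rw [ratio, S.four_sub]
  push_cast
  rw [← hx, hvk]
  field_simp
  linear_combination 2 * S.ρ2 * hdw'

theorem kill_odd {h : ℕ} (hh : 2 ≤ h) (hqr : S.q = S.r) (hbraid : S.T ^ h * S.a = S.T' ^ h * S.b) :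
    (S.u h + (S.q : ℝ) • S.u (h - 1)) * (S.a * S.b - S.b * S.a) = 0 := by
  obtain ⟨k, rfl⟩ : ∃ k, h = k + 2 := ⟨h - 2, by omega⟩
  have e1 : S.T * S.a = S.Z * S.a - (S.q : ℝ) • (S.b - ((S.r : ℝ) - 1) • 1) :=
    eq_sub_of_add_eq S.Z_mul_a.symm
  have e2 : S.T' * S.b = S.Z * S.b - (S.r : ℝ) • (S.a - ((S.q : ℝ) - 1) • 1) :=
    eq_sub_of_add_eq S.Z_mul_b.symm
  rw [S.pow_eq S.T S.T_sq k, S.pow_eq S.T' S.T'_sq k, sub_mul, sub_mul, mul_assoc, mul_assoc, e1, e2,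
    ← hqr, ← sub_eq_zero] at hbraid
  have key : (S.u (k + 2) + (S.q : ℝ) • S.u (k + 1)) * (S.a - S.b) = 0 := by
    rw [← hbraid, show S.u (k + 2) = S.Z * S.u (k + 1) - S.ρ2 • S.u k from rfl,
      ← (S.u_comm S.Z (Commute.refl _) (k + 1)).eq]
    simp only [add_mul, sub_mul, mul_sub, smul_mul_assoc, mul_smul_comm, mul_one, mul_assoc]
    module
  have hb : Commute (S.u (k + 2) + (S.q : ℝ) • S.u (k + 1)) S.b :=
    (S.u_comm _ S.comm_b _).add_left ((S.u_comm _ S.comm_b _).smul_left _)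
  rw [show k + 2 - 1 = k + 1 from rfl,
    show S.a * S.b - S.b * S.a = (S.a - S.b) * S.b - S.b * (S.a - S.b) from by noncomm_ring,
    mul_sub, ← mul_assoc, key, ← mul_assoc, hb.eq, mul_assoc, key, zero_mul, mul_zero, sub_zero]

theorem ratio_odd {h j : ℕ} (hh : 2 ≤ h) (hqr : S.q = S.r) (hV : S.Vanish h)
    (hbraid : S.T ^ h * S.a = S.T' ^ h * S.b) (hj : 1 ≤ j) (hjh : j ≤ h) :
    ∃ x : ℚ, S.ratio (S.zpt (π * (2 * j : ℕ) / (2 * h + 1 : ℕ))) = x := by
  set φ := π * ((2 * j : ℕ) : ℝ) / ((2 * h + 1 : ℕ) : ℝ) with hφ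
  have hn0 : (0 : ℝ) < ((2 * h + 1 : ℕ) : ℝ) := by exact_mod_cast (by omega : 0 < 2 * h + 1)
  have hs : 0 < sin φ := by
    refine sin_pos_of_pos_of_lt_pi (by
      have : (0 : ℝ) < ((2 * j : ℕ) : ℝ) := by exact_mod_cast (by omega : 0 < 2 * j)
      positivity) ?_
    rw [hφ, div_lt_iff₀ hn0]
    exact mul_lt_mul_of_pos_left (by exact_mod_cast (by omega : 2 * j < 2 * h + 1)) pi_pos
  have hnφ : ((h : ℝ) + 1) * φ = (j : ℕ) * (2 * π) - (h : ℝ) * φ := by
    rw [hφ]; push_cast; field_simp; ring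
  have hsin1 : sin (((h : ℝ) + 1) * φ) = -sin ((h : ℝ) * φ) := by
    rw [hnφ, sin_nat_mul_two_pi_sub]
  have hcos1 : cos (((h : ℝ) + 1) * φ) = cos ((h : ℝ) * φ) := by
    rw [hnφ, cos_nat_mul_two_pi_sub]
  have hadd : sin (((h : ℝ) + 1) * φ) = sin ((h : ℝ) * φ) * cos φ + cos ((h : ℝ) * φ) * sin φ := by
    rw [add_mul, one_mul, sin_add]
  have hc2 : -1 < cos φ := by nlinarith [sin_sq_add_cos_sq φ]
  have hC : cos ((h : ℝ) * φ) ≠ 0 := fun h0 => by
    rw [hsin1, h0, zero_mul, add_zero] at hadd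
    have h1 : sin ((h : ℝ) * φ) * (1 + cos φ) = 0 := by linarith
    rcases mul_eq_zero.1 h1 with h2 | h2
    · simpa [h2, h0] using sin_sq_add_cos_sq ((h : ℝ) * φ)
    · linarith
  have hρq : S.ρ = S.q := by
    rw [ρ, ρ2, ← hqr, Real.sqrt_mul_self (Nat.cast_nonneg _)]
  obtain ⟨k, rfl⟩ : ∃ k, h = k + 2 := ⟨h - 2, by omega⟩
  have hv2 := S.v_mul_sin φ (k + 2)
  have hv1 := S.v_mul_sin φ (k + 1)
  have hv0 := S.v_mul_sin φ k
  have hd2 := S.dw_mul_sin φ (k + 2)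
  have hd1 := S.dw_mul_sin φ (k + 1)
  push_cast at hv2 hv1 hv0 hd2 hd1 hsin1 hcos1 hadd hC
  rw [hsin1] at hv2 hd2 hadd
  rw [hcos1] at hd2
  rw [show ((k : ℝ) + 1 + 1) = k + 2 from by ring] at hv1 hd1
  rw [show ((k : ℝ) + 1) * φ = ((k : ℝ) + 2) * φ - φ from by ring, sin_sub] at hv0
  have hq0 : (0 : ℝ) < S.q := hρq ▸ S.ρ_pos
  rw [hρq] at hv2 hv1 hv0 hd2 hd1
  set z := S.zpt φ with hz
  have hroot : S.v z (k + 2) + (S.q : ℝ) * S.v z (k + 1) = 0 := by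
    apply mul_right_cancel₀ hs.ne'
    linear_combination hv2 + (S.q : ℝ) * hv1
  have hnum : S.v z (k + 1) + (S.q : ℝ) * S.v z k
      = -2 * (S.q : ℝ) ^ (k + 1) * cos (((k : ℝ) + 2) * φ) := by
    apply mul_right_cancel₀ hs.ne'
    linear_combination hv1 + (S.q : ℝ) * hv0 - (S.q : ℝ) ^ (k + 1) * hadd
  have hden : (S.dw z (k + 2) + (S.q : ℝ) * S.dw z (k + 1)) * (2 * sin φ ^ 2)
      = -(2 * (k : ℝ) + 5) * (S.q : ℝ) ^ (k + 1) * cos (((k : ℝ) + 2) * φ) := by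
    apply mul_right_cancel₀ (mul_ne_zero hs.ne' hq0.ne')
    linear_combination hd2 + (S.q : ℝ) * hd1
  have hk5 : (0 : ℝ) < 2 * (k : ℝ) + 5 := by positivity
  have hdne : S.dw z (k + 2) + (S.q : ℝ) * S.dw z (k + 1) ≠ 0 := by
    intro h0
    rw [h0, zero_mul] at hden
    have h3 : (2 * (k : ℝ) + 5) * (S.q : ℝ) ^ (k + 1) * cos (((k : ℝ) + 2) * φ) = 0 := by linarith
    simp [hk5.ne', hq0.ne', hC] at h3
  obtain ⟨x, hx⟩ := S.rat_of_root hV (m := k + 2) (by omega) le_rfl (S.q : ℝ) z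
    (by simpa using hroot) (S.kill_odd (by omega) hqr hbraid) (S.d_neg hs).ne (by simpa using hdne)
  refine ⟨(2 * (k : ℚ) + 5) * x, ?_⟩
  simp only [show k + 2 - 1 = k + 1 from rfl, Nat.add_sub_cancel,
    if_neg (show ¬ (k + 2 = 1) from by omega)] at hx
  have hd := (S.d_neg hs).ne
  rw [← hz] at hd
  rw [ratio, hz, S.four_sub, ← hz]
  push_cast
  rw [← hx, hnum]
  field_simp
  linear_combination 2 * S.ρ2 * hden

theorem quad_of_ratio {z : ℝ} (hd : S.d z ≠ 0) {V : ℝ} (hV : S.ratio z = V) :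
    (V + 1) * (z * z) - V * S.c * z + (V * S.P - 4 * S.ρ2) = 0 := by
  rw [ratio, div_eq_iff hd] at hV
  simp only [d] at hV
  linear_combination -hV

theorem P_add_neg : S.P + 4 * S.ρ2 < 0 := by
  have hq : (2 : ℝ) ≤ S.q := by exact_mod_cast S.hq
  have hr : (2 : ℝ) ≤ S.r := by exact_mod_cast S.hr
  simp only [P, ρ2]
  nlinarith [mul_le_mul hq hr (by norm_num) (by linarith)]

theorem c_pos : 0 < S.c := by
  have hq : (2 : ℝ) ≤ S.q := by exact_mod_cast S.hq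
  have hr : (2 : ℝ) ≤ S.r := by exact_mod_cast S.hr
  unfold c
  exact mul_pos (by linarith) (by linarith)

theorem c_rat : ∃ x : ℚ, S.c = x := ⟨((S.q : ℚ) - 1) * ((S.r : ℚ) - 1), by simp [c]⟩
theorem P_rat : ∃ x : ℚ, S.P = x := ⟨-((1 + (S.q : ℚ) * S.r) * ((S.q : ℚ) + S.r)), by simp [P]⟩
theorem ρ2_rat : ∃ x : ℚ, S.ρ2 = x := ⟨(S.q : ℚ) * S.r, by simp [ρ2]⟩

theorem z_rat_even {h j : ℕ} (hh : 2 ≤ h) (hV : S.Vanish (h - 1)) (hbraid : S.T ^ h = S.T' ^ h)
    (hj : 1 ≤ j) (hjh : j < h) : ∃ x : ℚ, S.zpt (π * j / h) = x := by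
  have hh0 : (0 : ℝ) < h := by exact_mod_cast (by omega : 0 < h)
  obtain ⟨V, hVe⟩ := S.ratio_even hh hV hbraid hj hjh
  obtain ⟨V', hVe'⟩ := S.ratio_even hh hV hbraid (j := h - j) (by omega) (by omega)
  have hneg : S.zpt (π * ((h - j : ℕ) : ℝ) / h) = -S.zpt (π * j / h) := by
    rw [zpt, zpt, Nat.cast_sub hjh.le, show π * ((h : ℝ) - j) / h = π - π * j / h from by field_simp,
      cos_pi_sub]
    ring
  rw [hneg] at hVe'
  have hs : ∀ i : ℕ, 1 ≤ i → i < h → 0 < sin (π * i / h) := fun i hi hih => by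
    refine sin_pos_of_pos_of_lt_pi (by
      have : (0 : ℝ) < i := by exact_mod_cast hi
      positivity) ?_
    rw [div_lt_iff₀ hh0]
    exact mul_lt_mul_of_pos_left (by exact_mod_cast hih) pi_pos
  have hs1 := hs j hj hjh
  have hd := (S.d_neg hs1).ne
  have hd' : S.d (-S.zpt (π * j / h)) ≠ 0 := by
    rw [← hneg]; exact (S.d_neg (hs (h - j) (by omega) (by omega))).ne
  have hV0 : (V : ℝ) ≠ 0 := by
    rw [← hVe, ratio, S.four_sub]
    exact div_ne_zero (by have := S.ρ2_pos; positivity) hd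
  obtain ⟨c', hc'⟩ := S.c_rat
  obtain ⟨P', hP'⟩ := S.P_rat
  obtain ⟨r', hr'⟩ := S.ρ2_rat
  generalize S.zpt (π * j / h) = z at *
  have E1 := S.quad_of_ratio hd hVe
  have E2 := S.quad_of_ratio hd' hVe'
  have E3 : S.c * z * ((V : ℝ) * ((V' : ℝ) + 1) + V' * ((V : ℝ) + 1))
      = ((V : ℝ) - V') * (S.P + 4 * S.ρ2) := by
    linear_combination -((V' : ℝ) + 1) * E1 + ((V : ℝ) + 1) * E2
  by_cases hA : (V : ℝ) * ((V' : ℝ) + 1) + V' * ((V : ℝ) + 1) = 0
  · rw [hA, mul_zero] at E3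
    have hVV : (V : ℝ) = V' := by
      rcases mul_eq_zero.1 E3.symm with h0 | h0
      · linarith
      · exact absurd h0 S.P_add_neg.ne
    rw [← hVV] at hA
    have hm1 : (V : ℝ) + 1 = 0 := by
      rcases mul_eq_zero.1 (show (V : ℝ) * ((V : ℝ) + 1) = 0 by linarith) with h0 | h0
      · exact absurd h0 hV0
      · exact h0
    refine ⟨(P' + 4 * r') / c', ?_⟩
    push_cast
    rw [← hc', ← hP', ← hr', eq_div_iff S.c_pos.ne']
    linear_combination E1 - (z * z - S.c * z + S.P) * hm1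
  · refine ⟨(V - V') * (P' + 4 * r') / (c' * (V * (V' + 1) + V' * (V + 1))), ?_⟩
    push_cast
    rw [← hc', ← hP', ← hr', eq_div_iff (mul_ne_zero S.c_pos.ne' hA)]
    linear_combination E3

theorem even_bound {h : ℕ} (hh : 2 ≤ h) (hV : S.Vanish (h - 1)) (hbraid : S.T ^ h = S.T' ^ h) :
    h ≤ 4 := by
  by_contra hlt
  push Not at hlt
  have hh0 : (0 : ℝ) < h := by exact_mod_cast (by omega : 0 < h)
  obtain ⟨z1, hz1⟩ := S.z_rat_even hh hV hbraid le_rfl (by omega : 1 < h)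
  obtain ⟨r', hr'⟩ := S.ρ2_rat
  have hcos : ∃ x : ℚ, cos (2 * (π * ((1 : ℕ) : ℝ) / h)) = x := by
    refine ⟨z1 ^ 2 / (2 * r') - 1, ?_⟩
    push_cast
    rw [← hz1, ← hr', cos_two_mul, zpt]
    have := S.ρ2_pos
    rw [mul_pow, mul_pow, sq S.ρ, S.ρ_sq]
    push_cast
    field_simp
  have hang : ∃ x : ℚ, 2 * (π * ((1 : ℕ) : ℝ) / h) = x * π := ⟨2 / h, by push_cast; ring⟩
  have hpos : 0 < 2 * (π * ((1 : ℕ) : ℝ) / h) := by positivity
  have hlt2 : 2 * (π * ((1 : ℕ) : ℝ) / h) < π / 2 := by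
    push_cast
    rw [mul_one, lt_div_iff₀ two_pos, mul_div, div_mul_eq_mul_div, div_lt_iff₀ hh0]
    have : (5 : ℝ) ≤ h := by exact_mod_cast hlt
    nlinarith [pi_pos]
  have hmem := niven_angle_eq hang hcos ⟨hpos.le, by linarith [pi_pos]⟩
  simp only [Set.mem_insert_iff, Set.mem_singleton_iff] at hmem
  have h6 : h = 6 := by
    rcases hmem with h0 | h0 | h0 | h0 | h0
    · linarith
    · push_cast at h0
      rw [mul_one, mul_div, div_eq_div_iff hh0.ne' (by norm_num)] at h0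
      have : (6 : ℝ) = h := mul_left_cancel₀ pi_ne_zero (by linarith)
      exact_mod_cast this.symm
    all_goals linarith [pi_pos]
  subst h6
  obtain ⟨z2, hz2⟩ := S.z_rat_even hh hV hbraid (j := 2) (by omega) (by omega)
  rw [zpt, show π * ((2 : ℕ) : ℝ) / ((6 : ℕ) : ℝ) = π / 3 from by push_cast; ring, cos_pi_div_three] at hz2
  rw [zpt, show π * ((1 : ℕ) : ℝ) / ((6 : ℕ) : ℝ) = π / 6 from by push_cast; ring, cos_pi_div_six] at hz1
  have h3 : (Nat.Prime 3) := by norm_num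
  apply h3.irrational_sqrt
  refine ⟨z1 / z2, ?_⟩
  push_cast
  rw [← hz1, ← hz2]
  have := S.ρ_pos
  field_simp

theorem totient_bound {n : ℕ} (ho : Odd n) (h5 : 5 ≤ n) (ht : n.totient ≤ 4) : n = 5 := by
  have hp : ∀ p, p.Prime → p ∣ n → p = 3 ∨ p = 5 := by
    intro p hp hpn
    have h1 := Nat.le_of_dvd (Nat.totient_pos.2 (by omega)) (Nat.totient_dvd_of_dvd hpn)
    rw [Nat.totient_prime hp] at h1
    have h2 := hp.two_le
    have h3 : p ≠ 2 := fun h => by subst h; exact (Nat.not_even_iff_odd.2 ho) (even_iff_two_dvd.2 hpn)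
    have h4 : p ≠ 4 := fun h => by subst h; norm_num at hp
    omega
  have h9 : ¬ 9 ∣ n := fun h => by
    have := Nat.le_of_dvd (Nat.totient_pos.2 (by omega)) (Nat.totient_dvd_of_dvd h)
    have : Nat.totient 9 = 6 := by decide
    omega
  have h25 : ¬ 25 ∣ n := fun h => by
    have := Nat.le_of_dvd (Nat.totient_pos.2 (by omega)) (Nat.totient_dvd_of_dvd h)
    have : Nat.totient 25 = 20 := by decide
    omega
  have h15 : ¬ 15 ∣ n := fun h => by
    have := Nat.le_of_dvd (Nat.totient_pos.2 (by omega)) (Nat.totient_dvd_of_dvd h)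
    have : Nat.totient 15 = 8 := by decide
    omega
  obtain ⟨p, hpp, hpn⟩ := Nat.exists_prime_and_dvd (show n ≠ 1 by omega)
  obtain ⟨m, rfl⟩ := hpn
  by_cases hm : m = 1
  · subst hm; rcases hp p hpp (dvd_mul_right _ _) with h | h <;> omega
  obtain ⟨q, hqp, hqm⟩ := Nat.exists_prime_and_dvd hm
  rcases hp p hpp (dvd_mul_right _ _) with rfl | rfl <;>
    rcases hp q hqp (hqm.mul_left _) with rfl | rfl
  · exact absurd (mul_dvd_mul_left 3 hqm) h9
  · exact absurd (mul_dvd_mul_left 3 hqm) h15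
  · exact absurd (mul_dvd_mul_left 5 hqm) h15
  · exact absurd (mul_dvd_mul_left 5 hqm) h25

theorem cos_quad_bound {n : ℕ} (hn : 5 ≤ n) (ho : Odd n) (α β γ : ℚ) (hα : α ≠ 0)
    (h : (α : ℝ) * (cos (2 * π / n) * cos (2 * π / n)) + β * cos (2 * π / n) + γ = 0) : n = 5 := by
  refine totient_bound ho hn ?_
  set ζ := Complex.exp (2 * π * Complex.I / n) with hζ
  have hprim := Complex.isPrimitiveRoot_exp n (by omega)
  have hmin := Polynomial.cyclotomic_eq_minpoly_rat hprim (by omega)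
  let p : Polynomial ℚ := Polynomial.C α * (Polynomial.X ^ 2 + 1) ^ 2
    + Polynomial.C (2 * β) * (Polynomial.X ^ 2 + 1) * Polynomial.X + Polynomial.C (4 * γ) * Polynomial.X ^ 2
  have hp4 : p.coeff 4 = α := by
    simp only [p, add_sq, mul_add, add_mul, mul_one, one_pow, ← pow_mul]
    simp [Polynomial.coeff_X, Polynomial.coeff_one, mul_assoc, ← pow_succ]
  have hdeg : p.natDegree ≤ 4 := by
    simp only [p]
    compute_degree
  have hζ2 : (ζ ^ 2 + 1) = 2 * (cos (2 * π / n) : ℂ) * ζ := by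
    rw [Complex.ofReal_cos, Complex.cos]
    push_cast
    rw [show (2 * (π : ℂ) / n) * Complex.I = 2 * π * Complex.I / n from by ring,
      show -(2 * (π : ℂ) / n) * Complex.I = -(2 * π * Complex.I / n) from by ring, ← hζ, Complex.exp_neg, ← hζ]
    have : ζ ≠ 0 := Complex.exp_ne_zero _
    field_simp
  have hroot : Polynomial.aeval ζ p = 0 := by
    simp only [p, map_add, map_mul, map_pow, Polynomial.aeval_C, Polynomial.aeval_X, map_one, hζ2]
    have h' := congrArg (fun x : ℝ => (x : ℂ)) h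
    simp only [Complex.ofReal_add, Complex.ofReal_mul, Complex.ofReal_ratCast, Complex.ofReal_zero] at h'
    simp only [eq_ratCast]
    push_cast at h' ⊢
    linear_combination (4 * ζ ^ 2) * h'
  have hne : p ≠ 0 := fun h0 => hα (by rw [← hp4, h0, Polynomial.coeff_zero])
  have h1 := Polynomial.natDegree_le_of_dvd (minpoly.dvd ℚ ζ hroot) hne
  rw [← hmin, Polynomial.natDegree_cyclotomic] at h1
  omega

theorem odd_bound {h : ℕ} (hh : 2 ≤ h) (hqr : S.q = S.r) (hV : S.Vanish h)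
    (hbraid : S.T ^ h * S.a = S.T' ^ h * S.b) : False := by
  obtain ⟨V, hVe⟩ := S.ratio_odd hh hqr hV hbraid (j := 1) le_rfl (by omega)
  set n := 2 * h + 1 with hn
  have hn5 : 5 ≤ n := by omega
  have hn0 : (0 : ℝ) < n := by exact_mod_cast (by omega : 0 < n)
  rw [show π * ((2 * 1 : ℕ) : ℝ) / (n : ℝ) = 2 * π / n from by push_cast; ring] at hVe
  have hs : 0 < sin (2 * π / n) := by
    refine sin_pos_of_pos_of_lt_pi (by positivity) ?_
    rw [div_lt_iff₀ hn0]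
    have : (5 : ℝ) ≤ n := by exact_mod_cast hn5
    nlinarith [pi_pos]
  have hρq : S.ρ = S.q := by rw [ρ, ρ2, ← hqr, Real.sqrt_mul_self (Nat.cast_nonneg _)]
  have E := S.quad_of_ratio (S.d_neg hs).ne hVe
  rw [zpt, hρq] at E
  obtain ⟨c', hc'⟩ := S.c_rat
  obtain ⟨P', hP'⟩ := S.P_rat
  obtain ⟨r', hr'⟩ := S.ρ2_rat
  have hq0 : (0 : ℝ) < S.q := hρq ▸ S.ρ_pos
  have hq1 : (1 : ℝ) < S.q := by exact_mod_cast S.hq
  have hn_ne : n ≠ 6 := by omega
  by_cases hα : (V : ℝ) + 1 = 0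
  · have hrat : ∃ x : ℚ, cos (2 * π / n) = x := by
      refine ⟨(P' + 4 * r') / (2 * S.q * c'), ?_⟩
      push_cast
      rw [← hc', ← hP', ← hr', eq_div_iff (by have := S.c_pos; positivity)]
      linear_combination E - ((2 * (S.q : ℝ) * cos (2 * π / n)) * (2 * (S.q : ℝ) * cos (2 * π / n))
        - S.c * (2 * (S.q : ℝ) * cos (2 * π / n)) + S.P) * hα
    have hlt : 2 * π / n < π / 2 := by
      rw [div_lt_div_iff₀ hn0 two_pos]
      have : (5 : ℝ) ≤ n := by exact_mod_cast hn5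
      nlinarith [pi_pos]
    have hmem := niven_angle_eq ⟨2 / n, by push_cast; ring⟩ hrat
      ⟨by positivity, by linarith [pi_pos]⟩
    simp only [Set.mem_insert_iff, Set.mem_singleton_iff] at hmem
    have hpos : 0 < 2 * π / n := by positivity
    rcases hmem with h0 | h0 | h0 | h0 | h0
    · linarith
    · rw [div_eq_div_iff hn0.ne' (by norm_num)] at h0
      have : (6 : ℝ) = n := mul_left_cancel₀ pi_ne_zero (by linarith)
      exact hn_ne (by exact_mod_cast this.symm)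
    all_goals linarith [pi_pos]
  · have h5 : n = 5 := by
      refine cos_quad_bound hn5 ⟨h, hn⟩ (4 * (S.q : ℚ) ^ 2 * (V + 1)) (-(2 * S.q * V * c'))
        (V * P' - 4 * r') ?_ ?_
      · intro h0
        have h1 := congrArg (fun x : ℚ => (x : ℝ)) h0
        push_cast at h1
        simp [hq0.ne', hα] at h1
      · push_cast
        rw [← hc', ← hP', ← hr']
        linear_combination E
    rw [h5] at E
    rw [show 2 * π / ((5 : ℕ) : ℝ) = 2 * (π / 5) from by push_cast; ring, cos_two_mul, cos_pi_div_five] at E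
    have hrq : (S.r : ℝ) = S.q := by rw [hqr]
    simp only [c, P, ρ2, hrq] at E
    have h5sq : (√5 : ℝ) * √5 = 5 := Real.mul_self_sqrt (by norm_num)
    set q : ℝ := (S.q : ℝ) with hqd
    set s : ℝ := √5 with hsd
    have E' : (-q / 2 * ((V : ℝ) + 1) * q - q / 2 * V * ((q - 1) * (q - 1))) * s
        + ((3 / 2) * q ^ 2 * ((V : ℝ) + 1) + q / 2 * V * ((q - 1) * (q - 1))
          + (V * (-((1 + q * q) * (q + q))) - 4 * (q * q))) = 0 := by
      linear_combination E - ((V : ℝ) + 1) * q ^ 2 * (s / 4 + (s * s - 5) / 16) * h5sq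
        + ((V : ℝ) * ((q - 1) * (q - 1)) * q / 4) * h5sq
    by_cases hA : -q / 2 * ((V : ℝ) + 1) * q - q / 2 * V * ((q - 1) * (q - 1)) = 0
    · rw [hA, zero_mul, zero_add] at E'
      have hA' : ((V : ℝ) + 1) * q + V * ((q - 1) * (q - 1)) = 0 := by
        apply mul_left_cancel₀ (show -q / 2 ≠ 0 by
          intro h0; linarith)
        linear_combination hA
      nlinarith [mul_pos hq0 hq0, sq_nonneg (q - 1), sq_pos_of_pos (show 0 < q - 1 by linarith)]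
    · apply (show Nat.Prime 5 by norm_num).irrational_sqrt
      refine ⟨-((3 / 2) * (S.q : ℚ) ^ 2 * (V + 1) + S.q / 2 * V * ((S.q - 1) * (S.q - 1))
          + (V * (-((1 + S.q * S.q) * (S.q + S.q))) - 4 * (S.q * S.q)))
        / (-(S.q : ℚ) / 2 * (V + 1) * S.q - S.q / 2 * V * ((S.q - 1) * (S.q - 1))), ?_⟩
      push_cast
      rw [← hqd, div_eq_iff hA]
      linear_combination -E'

end Setup

end CfsgLib.FeitHigman
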