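import Cfsg.Agent.BNPair.Basic
import Cfsg.Agent.BNPair.Coxeter
import Cfsg.Agent.FeitHigman.Main

/-!
The Hecke operators of a finite BN-pair acting on functions on `G ⧸ B`, and the Feit-Higman theorem.
-/

set_option autoImplicit false

namespace CfsgLib.FeitHigman

open CfsgLib.BNPair

variable {G : Type*} [Group G] (P : Cfsg.BNPair G)

/-- Relative position of two cosets. -/
def Rel (w : W P) (x y : G ⧸ P.B) : Prop := x.out⁻¹ * y.out ∈ cell P w

theorem rel_iff (w : W P) (g h : G) : Rel P w (g : G ⧸ P.B) (h : G ⧸ P.B) ↔ g⁻¹ * h ∈ cell P w := by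
  obtain ⟨a, ha⟩ := QuotientGroup.mk_out_eq_mul P.B g
  obtain ⟨b, hb⟩ := QuotientGroup.mk_out_eq_mul P.B h
  unfold Rel
  rw [ha, hb]
  constructor
  · intro hm
    have := mem_cell_mul_B P (B_mul_mem_cell P a.2 hm) (inv_mem b.2)
    simpa [mul_assoc] using this
  · intro hm
    have := mem_cell_mul_B P (B_mul_mem_cell P (inv_mem a.2) hm) b.2
    simpa [mul_assoc] using this

theorem rel_symm {w : W P} {x y : G ⧸ P.B} (h : Rel P w x y) : Rel P w⁻¹ y x := by
  simpa [Rel] using inv_mem_cell P h

theorem rel_one {x y : G ⧸ P.B} : Rel P 1 x y ↔ x = y := by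
  obtain ⟨g, rfl⟩ := QuotientGroup.mk_surjective x
  obtain ⟨h, rfl⟩ := QuotientGroup.mk_surjective y
  rw [rel_iff, mem_cell_one, QuotientGroup.eq]

theorem rel_unique {w v : W P} {x y : G ⧸ P.B} (h : Rel P w x y) (h' : Rel P v x y) : w = v :=
  cell_unique P h h'

theorem rel_trans_σ (s : P.S) {w : W P} {x y z : G ⧸ P.B} (h : Rel P (σ P s) x y) (h' : Rel P w y z) :
    Rel P (σ P s * w) x z ∨ Rel P w x z := by
  have := σ_mul_cell P s h h'
  rwa [show x.out⁻¹ * y.out * (y.out⁻¹ * z.out) = x.out⁻¹ * z.out from by group] at this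

theorem rel_trans_of_le (s : P.S) {w : W P} (hle : len P w ≤ len P (σ P s * w)) {x y z : G ⧸ P.B}
    (h : Rel P (σ P s) x y) (h' : Rel P w y z) : Rel P (σ P s * w) x z := by
  have := σ_mul_cell_of_le P s hle h h'
  rwa [show x.out⁻¹ * y.out * (y.out⁻¹ * z.out) = x.out⁻¹ * z.out from by group] at this

variable [Finite G]

open Classical in
/-- Indicator matrix of a relative position. -/
noncomputable def M (w : W P) : Matrix (G ⧸ P.B) (G ⧸ P.B) ℝ :=
  Matrix.of fun x y => if Rel P w x y then 1 else 0

/-- A fixed decidable equality on the cosets. -/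
noncomputable instance instDecEqCosets : DecidableEq (G ⧸ P.B) := Classical.decEq _

/-- A fixed finite enumeration of the cosets. -/
noncomputable instance instFintypeCosets : Fintype (G ⧸ P.B) := Fintype.ofFinite _

theorem M_mul_apply (u v : W P) (x z : G ⧸ P.B) :
    (M P u * M P v) x z = (Set.ncard {y | Rel P u x y ∧ Rel P v y z} : ℝ) := by
  classical
  simp only [Matrix.mul_apply, M, Matrix.of_apply, ite_mul, one_mul, zero_mul]
  simp_rw [← ite_and]
  rw [Finset.sum_boole]
  congr 1
  rw [Set.ncard_eq_toFinset_card']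
  congr 1
  ext y
  simp

theorem M_one : M P 1 = 1 := by
  classical
  ext x y
  simp [M, Matrix.one_apply, rel_one]

theorem M_σ_mul (s : P.S) {w : W P} (hle : len P w ≤ len P (σ P s * w)) :
    M P (σ P s) * M P w = M P (σ P s * w) := by
  classical
  ext x z
  rw [M_mul_apply, M, Matrix.of_apply]
  by_cases h : Rel P (σ P s * w) x z
  · rw [if_pos h]
    obtain ⟨a, ha, b, hb, hab⟩ := exists_mul_of_mem_cell_mul P h
    have hy : ∃ y, Rel P (σ P s) x y ∧ Rel P w y z := by
      refine ⟨((x.out * a : G) : G ⧸ P.B), ?_, ?_⟩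
      · have := (rel_iff P (σ P s) x.out (x.out * a)).2 (by rwa [inv_mul_cancel_left])
        rwa [QuotientGroup.out_eq'] at this
      · have := (rel_iff P w (x.out * a) z.out).2 (by
          rw [mul_inv_rev, mul_assoc, hab, inv_mul_cancel_left]; exact hb)
        rwa [QuotientGroup.out_eq'] at this
    obtain ⟨y, hy⟩ := hy
    rw [Set.ncard_eq_one.2 ⟨y, Set.eq_singleton_iff_unique_mem.2 ⟨hy, ?_⟩⟩]
    · norm_num
    rintro y' ⟨h1, h2⟩
    have hs : Rel P (σ P s) y x := by simpa [σ_inv] using rel_symm P hy.1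
    rcases rel_trans_σ P s hs h1 with h3 | h3
    · rw [σ_sq, rel_one] at h3; exact h3.symm
    · exfalso
      have := rel_unique P (rel_trans_of_le P s hle h3 h2) hy.2
      exact σ_ne_one P s (mul_eq_right.1 this)
  · rw [if_neg h]
    rw [Nat.cast_eq_zero, Set.ncard_eq_zero]
    exact Set.eq_empty_iff_forall_notMem.2 fun y hy => h (rel_trans_of_le P s hle hy.1 hy.2)

/-- The parameter `q_s`. -/
noncomputable def qpar (s : P.S) : ℕ :=
  Set.ncard {y : G ⧸ P.B | Rel P (σ P s) ((1 : G) : G ⧸ P.B) y}

theorem ncard_rel (s : P.S) (x : G ⧸ P.B) : Set.ncard {y | Rel P (σ P s) x y} = qpar P s := by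
  obtain ⟨g, rfl⟩ := QuotientGroup.mk_surjective x
  unfold qpar
  rw [show {y | Rel P (σ P s) (g : G ⧸ P.B) y}
      = (fun y : G ⧸ P.B => g • y) '' {y | Rel P (σ P s) ((1 : G) : G ⧸ P.B) y} from ?_,
    Set.ncard_image_of_injective _ (MulAction.injective g)]
  ext y
  obtain ⟨h, rfl⟩ := QuotientGroup.mk_surjective y
  constructor
  · intro hy
    refine ⟨((g⁻¹ * h : G) : G ⧸ P.B), ?_, ?_⟩
    · simpa [rel_iff] using hy
    · show g • ((g⁻¹ * h : G) : G ⧸ P.B) = _
      rw [MulAction.Quotient.smul_coe, smul_eq_mul, mul_inv_cancel_left]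
  · rintro ⟨z, hz, hzy⟩
    obtain ⟨k, rfl⟩ := QuotientGroup.mk_surjective z
    show Rel P _ _ _
    rw [← hzy]
    show Rel P _ _ ((g • k : G) : G ⧸ P.B)
    rw [smul_eq_mul, rel_iff, inv_mul_cancel_left]
    simpa [rel_iff] using hz

theorem two_le_qpar (s : P.S) : 2 ≤ qpar P s := by
  obtain ⟨b, hb, hbs⟩ := exists_conj_not_mem P s
  unfold qpar
  refine Nat.succ_le_of_lt ((Set.one_lt_ncard_iff).2 ⟨((s : G) : G ⧸ P.B), ((b * s : G) : G ⧸ P.B), ?_, ?_, ?_⟩)
  · show Rel P _ _ _
    rw [rel_iff, inv_one, one_mul]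
    exact S_mem_cell P s
  · show Rel P _ _ _
    rw [rel_iff, inv_one, one_mul]
    exact B_mul_mem_cell P hb (S_mem_cell P s)
  · rw [Ne, QuotientGroup.eq]
    intro h
    apply hbs
    have := mul_mem (P.sq_mem _ s.2) h
    rwa [show (s : G) * s * ((s : G)⁻¹ * (b * s)) = s * b * s from by group] at this

theorem M_σ_sq (s : P.S) :
    M P (σ P s) * M P (σ P s) = ((qpar P s : ℝ) - 1) • M P (σ P s) + (qpar P s : ℝ) • 1 := by
  classical
  ext x z
  rw [M_mul_apply]
  simp only [Matrix.add_apply, Matrix.smul_apply, M, Matrix.of_apply, Matrix.one_apply, smul_eq_mul]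
  have hsymm : ∀ {a b : G ⧸ P.B}, Rel P (σ P s) a b → Rel P (σ P s) b a := fun {a b} h => by
    simpa [σ_inv] using rel_symm P h
  have hne : ∀ {a b : G ⧸ P.B}, Rel P (σ P s) a b → a ≠ b := fun {a b} h hab =>
    σ_ne_one P s (rel_unique P h ((rel_one P).2 hab))
  by_cases hxz : x = z
  · subst hxz
    rw [if_neg (fun h => hne h rfl), if_pos rfl]
    rw [show {y | Rel P (σ P s) x y ∧ Rel P (σ P s) y x} = {y | Rel P (σ P s) x y} from
      Set.ext fun y => ⟨fun h => h.1, fun h => ⟨h, hsymm h⟩⟩, ncard_rel]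
    ring
  · rw [if_neg hxz]
    by_cases h : Rel P (σ P s) x z
    · rw [if_pos h]
      have : {y | Rel P (σ P s) x y ∧ Rel P (σ P s) y z} = {y | Rel P (σ P s) x y} \ {z} := by
        ext y
        refine ⟨fun hy => ⟨hy.1, fun hyz => hne hy.2 hyz⟩, fun hy => ⟨hy.1, ?_⟩⟩
        rcases rel_trans_σ P s (hsymm hy.1) h with h3 | h3
        · rw [σ_sq, rel_one] at h3; exact absurd h3 hy.2
        · exact h3
      rw [this, Set.ncard_sdiff_singleton_of_mem (show z ∈ {y | Rel P (σ P s) x y} from h), ncard_rel]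
      rw [Nat.cast_sub (by have := two_le_qpar P s; omega)]
      push_cast
      ring
    · rw [if_neg h]
      rw [show {y | Rel P (σ P s) x y ∧ Rel P (σ P s) y z} = ∅ from
        Set.eq_empty_iff_forall_notMem.2 fun y hy => by
          rcases rel_trans_σ P s hy.1 hy.2 with h3 | h3
          · rw [σ_sq, rel_one] at h3; exact hxz h3
          · exact h h3]
      simp

theorem trace_M_mul {u v : W P} (huv : u * v ≠ 1) : Matrix.trace (M P u * M P v) = 0 := by
  refine Finset.sum_eq_zero fun x _ => ?_
  show (M P u * M P v) x x = 0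
  rw [M_mul_apply, Nat.cast_eq_zero, Set.ncard_eq_zero]
  refine Set.eq_empty_iff_forall_notMem.2 fun y hy => huv ?_
  rw [mul_eq_one_iff_eq_inv]
  exact rel_unique P hy.1 (rel_symm P hy.2)

theorem trace_M {u : W P} (hu : u ≠ 1) : Matrix.trace (M P u) = 0 := by
  have := trace_M_mul P (u := u) (v := 1) (by simpa using hu)
  rwa [M_one, mul_one] at this

theorem M_ones (L : List P.S) :
    ((L.map fun s => M P (σ P s)).prod).mulVec (1 : G ⧸ P.B → ℝ)
      = ((L.map fun s => (qpar P s : ℝ)).prod) • (1 : G ⧸ P.B → ℝ) := by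
  classical
  induction L with
  | nil => simp
  | cons s L ih =>
    simp only [List.map_cons, List.prod_cons, ← Matrix.mulVec_mulVec, ih, Matrix.mulVec_smul]
    ext x
    have : (M P (σ P s)).mulVec (1 : G ⧸ P.B → ℝ) x = (qpar P s : ℝ) := by
      simp only [Matrix.mulVec, dotProduct, M, Matrix.of_apply, Pi.one_apply, mul_one, Finset.sum_boole]
      rw [← ncard_rel P s x, Set.ncard_eq_toFinset_card']
      congr 2
      ext y
      simp
    simp only [Pi.smul_apply, smul_eq_mul, this, Pi.one_apply]
    ring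

theorem M_wd (L : List P.S) (hL : L.length = len P (wd P L)) :
    (L.map fun s => M P (σ P s)).prod = M P (wd P L) := by
  induction L with
  | nil => simp [M_one]
  | cons s L ih =>
    have h1 := len_wd_le P L
    have h2 := len_σ_mul_le P s (wd P L)
    rw [List.length_cons, wd_cons] at hL
    rw [List.map_cons, List.prod_cons, ih (by omega), M_σ_mul P s (by omega), wd_cons]

/-! ### Rank two -/

section RankTwo

variable (s t : P.S) (hst : s ≠ t) (hall : ∀ r : P.S, r = s ∨ r = t)

/-- The sign of an element of `W`. -/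
noncomputable def sgn : W P →* ℤˣ :=
  liftHom P (fun _ => (-1 : ℤˣ)) (fun _ => by simp) (fun _ _ => by simp)

omit [Finite G] in
theorem sgn_wd (L : List P.S) : sgn P (wd P L) = (-1 : ℤˣ) ^ L.length := by
  induction L with
  | nil => simp
  | cons a L ih => rw [wd_cons, map_mul, ih, List.length_cons, pow_succ', sgn, liftHom_σ]

omit [Finite G] in
theorem parity {L L' : List P.S} (h : wd P L = wd P L') : L.length % 2 = L'.length % 2 := by
  have := congrArg (sgn P) h
  rw [sgn_wd, sgn_wd] at this
  rcases Nat.even_or_odd L.length with h1 | h1 <;> rcases Nat.even_or_odd L'.length with h2 | h2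
  · rw [Nat.even_iff.1 h1, Nat.even_iff.1 h2]
  · rw [h1.neg_one_pow, h2.neg_one_pow] at this; exact absurd this (by decide)
  · rw [h1.neg_one_pow, h2.neg_one_pow] at this; exact absurd this (by decide)
  · rw [Nat.odd_iff.1 h1, Nat.odd_iff.1 h2]

omit [Finite G] in
theorem wd_alt_inv (a b : P.S) (k : ℕ) :
    wd P (alt a b k) * (wd P (alt b a k))⁻¹ = (σ P a * σ P b) ^ k :=
  alt_prod (σ P) (σ_sq P) a b k

omit [Finite G] in
theorem wd_alt_add (a b : P.S) (d m : ℕ) :
    wd P (alt a b (2 * d + m)) = (σ P a * σ P b) ^ d * wd P (alt a b m) := by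
  induction d with
  | zero => simp
  | succ d ih =>
    rw [show 2 * (d + 1) + m = (2 * d + m) + 1 + 1 from by ring, pow_succ', mul_assoc, ← ih, alt, alt,
      wd_cons, wd_cons, mul_assoc]

include hall in
omit [Finite G] in
theorem reduced_eq_alt : ∀ L : List P.S, L.length = len P (wd P L) →
    ∃ a b : P.S, ((a = s ∧ b = t) ∨ (a = t ∧ b = s)) ∧ L = alt a b L.length := by
  intro L
  induction L with
  | nil => exact fun _ => ⟨s, t, Or.inl ⟨rfl, rfl⟩, rfl⟩
  | cons r L ih =>
    intro h
    have h1 := len_wd_le P L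
    have h2 := len_σ_mul_le P r (wd P L)
    rw [List.length_cons, wd_cons] at h
    obtain ⟨a, b, hab, hL⟩ := ih (by omega)
    cases L with
    | nil =>
      rcases hall r with rfl | rfl
      exacts [⟨r, t, Or.inl ⟨rfl, rfl⟩, rfl⟩, ⟨r, s, Or.inr ⟨rfl, rfl⟩, rfl⟩]
    | cons r' L =>
      have hr' : r' = a := by
        rw [List.length_cons, alt] at hL
        exact (List.cons.inj hL).1
      have hne : r ≠ r' := by
        rintro rfl
        rw [wd_cons, σ_cancel] at h
        have := len_wd_le P L
        simp only [List.length_cons] at h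
        omega
      have hrb : r = b := by
        rcases hab with ⟨rfl, rfl⟩ | ⟨rfl, rfl⟩ <;> rcases hall r with h | h
        · exact absurd (h.trans hr'.symm) hne
        · exact h
        · exact h
        · exact absurd (h.trans hr'.symm) hne
      refine ⟨b, a, ?_, ?_⟩
      · rcases hab with ⟨rfl, rfl⟩ | ⟨rfl, rfl⟩
        exacts [Or.inr ⟨rfl, rfl⟩, Or.inl ⟨rfl, rfl⟩]
      · rw [List.length_cons, alt, ← hL, hrb]

include hst hall in
omit [Finite G] in
theorem len_alt {k : ℕ} (hk : k ≤ orderOf (σ P s * σ P t)) {a b : P.S}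
    (hab : (a = s ∧ b = t) ∨ (a = t ∧ b = s)) : (alt a b k).length = len P (wd P (alt a b k)) := by
  have horder : orderOf (σ P a * σ P b) = orderOf (σ P s * σ P t) := by
    rcases hab with ⟨rfl, rfl⟩ | ⟨rfl, rfl⟩
    · rfl
    · rw [← orderOf_inv, mul_inv_rev, σ_inv, σ_inv]
  obtain ⟨L, hL, hLw⟩ := exists_reduced P (wd P (alt a b k))
  obtain ⟨a', b', hab', hLalt⟩ := reduced_eq_alt P s t hall L (by rw [hLw]; exact hL)
  have hle := len_wd_le P (alt a b k)
  rw [length_alt] at hle ⊢
  by_contra hne
  have hpar := parity P hLw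
  rw [length_alt] at hpar
  obtain ⟨d, hd⟩ : ∃ d, k = 2 * d + L.length := ⟨(k - L.length) / 2, by omega⟩
  rw [hLalt] at hLw
  rw [hd, wd_alt_add] at hLw
  set m := L.length with hm
  have hdpos : 0 < d := by omega
  rcases (show (a' = a ∧ b' = b) ∨ (a' = b ∧ b' = a) by
    rcases hab with ⟨rfl, rfl⟩ | ⟨rfl, rfl⟩ <;> rcases hab' with ⟨rfl, rfl⟩ | ⟨rfl, rfl⟩ <;> simp)
    with ⟨rfl, rfl⟩ | ⟨rfl, rfl⟩
  · have h1 : (σ P a' * σ P b') ^ d = 1 := mul_eq_right.1 hLw.symm
    have := Nat.le_of_dvd hdpos (orderOf_dvd_of_pow_eq_one h1)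
    omega
  · have h1 : (σ P b' * σ P a') ^ (d + m) = 1 := by
      rw [pow_add, ← wd_alt_inv P b' a' m, ← mul_assoc, ← hLw, mul_inv_cancel]
    have := Nat.le_of_dvd (by omega) (orderOf_dvd_of_pow_eq_one h1)
    omega

include hst hall in
omit [Finite G] in
theorem card_W [Finite (W P)] : Nat.card (W P) = 2 * orderOf (σ P s * σ P t) := by
  have hker : (sgn P).ker = Subgroup.zpowers (σ P s * σ P t) := by
    apply le_antisymm
    · intro w hw
      obtain ⟨L, hL, rfl⟩ := exists_reduced P w
      obtain ⟨a, b, hab, hLalt⟩ := reduced_eq_alt P s t hall L hL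
      have he : Even L.length := by
        rw [MonoidHom.mem_ker, sgn_wd] at hw
        rcases Nat.even_or_odd L.length with h | h
        · exact h
        · rw [h.neg_one_pow] at hw; exact absurd hw (by decide)
      obtain ⟨d, hd⟩ := he
      rw [hLalt, hd, show d + d = 2 * d + 0 from by ring, wd_alt_add]
      have : σ P a * σ P b ∈ Subgroup.zpowers (σ P s * σ P t) := by
        rcases hab with ⟨rfl, rfl⟩ | ⟨rfl, rfl⟩
        · exact Subgroup.mem_zpowers _
        · have h1 := inv_mem (Subgroup.mem_zpowers (σ P b * σ P a))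
          rwa [mul_inv_rev, σ_inv, σ_inv] at h1
      simpa [alt] using pow_mem this d
    · rw [Subgroup.zpowers_le, MonoidHom.mem_ker]
      have := sgn_wd P [s, t]
      simpa using this
  have hidx : (sgn P).ker.index = 2 := by
    have hrange : (sgn P).range = ⊤ := by
      refine eq_top_iff.2 fun u _ => ?_
      rcases Int.units_eq_one_or u with rfl | rfl
      · exact one_mem _
      · exact ⟨σ P s, by simpa using sgn_wd P [s]⟩
    rw [Subgroup.index_ker, hrange, Subgroup.card_top, Nat.card_eq_fintype_card]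
    rfl
  have := Subgroup.index_mul_card (sgn P).ker
  rw [hidx, hker, Nat.card_zpowers] at this
  exact this.symm

/-- The setup attached to a rank two BN-pair. -/
noncomputable def setup : Setup (Matrix (G ⧸ P.B) (G ⧸ P.B) ℝ) where
  a := M P (σ P s)
  b := M P (σ P t)
  q := qpar P s
  r := qpar P t
  τ := Matrix.traceLinearMap _ ℝ ℝ
  hq := two_le_qpar P s
  hr := two_le_qpar P t
  sq_a := by convert M_σ_sq P s
  sq_b := by convert M_σ_sq P t
  τ_comm x y := Matrix.trace_mul_comm x y
  τ_one := by
    rw [Matrix.traceLinearMap_apply, Matrix.trace_one]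
    exact_mod_cast Fintype.card_pos
  τ_one_rat := ⟨Fintype.card (G ⧸ P.B), by simp [Matrix.trace_one]⟩
  τ_idem x hx := by
    refine ⟨(Module.finrank ℝ (LinearMap.range (Matrix.toLin' x)) : ℚ), ?_⟩
    have hp : LinearMap.IsProj (LinearMap.range (Matrix.toLin' x)) (Matrix.toLin' x) := by
      refine ⟨fun y => LinearMap.mem_range_self _ y, ?_⟩
      rintro y ⟨z, rfl⟩
      show (Matrix.toLin' x ∘ₗ Matrix.toLin' x) z = _
      rw [← Matrix.toLin'_mul, hx]
    rw [Matrix.traceLinearMap_apply, ← Matrix.trace_toLin'_eq, hp.trace]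
    simp
  τ_a := trace_M P (σ_ne_one P s)
  τ_b := trace_M P (σ_ne_one P t)

include hst hall in
theorem feit_higman : orderOf (σ P s * σ P t) ∈ ({2, 3, 4, 6, 8} : Set ℕ) := by
  classical
  have : Finite (W P) := Quotient.finite _
  set n := orderOf (σ P s * σ P t) with hn
  have hn2 : 2 ≤ n := by
    have h0 : 0 < n := orderOf_pos _
    have h1 : n ≠ 1 := by
      rw [hn, Ne, orderOf_eq_one_iff, mul_eq_one_iff_eq_inv, σ_inv]
      exact fun h => hst (σ_injective P h)
    omega
  set Se := setup P s t with hSe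
  have hab : (s = s ∧ t = t) ∨ (s = t ∧ t = s) := Or.inl ⟨rfl, rfl⟩
  have hba : (t = s ∧ s = t) ∨ (t = t ∧ s = s) := Or.inr ⟨rfl, rfl⟩
  have hM : ∀ a b k, ((a = s ∧ b = t) ∨ (a = t ∧ b = s)) → k ≤ n →
      ((alt a b k).map fun r => M P (σ P r)).prod = M P (wd P (alt a b k)) :=
    fun a b k h hk => M_wd P _ (len_alt P s t hst hall hk h)
  have hTpow : ∀ i, Se.T ^ i = ((alt s t (2 * i)).map fun r => M P (σ P r)).prod := by
    intro i
    induction i with
    | zero => simp [alt]
    | succ i ih =>
      rw [pow_succ', ih, show 2 * (i + 1) = 2 * i + 1 + 1 from by ring, alt, alt]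
      simp [Setup.T, hSe, setup, mul_assoc]
  have hT'pow : ∀ i, Se.T' ^ i = ((alt t s (2 * i)).map fun r => M P (σ P r)).prod := by
    intro i
    induction i with
    | zero => simp [alt]
    | succ i ih =>
      rw [pow_succ', ih, show 2 * (i + 1) = 2 * i + 1 + 1 from by ring, alt, alt]
      simp [Setup.T', hSe, setup, mul_assoc]
  have hsnoc : ∀ a b : P.S, ∀ i, (alt a b (2 * i + 1)).map (fun r => M P (σ P r))
      = (alt a b (2 * i)).map (fun r => M P (σ P r)) ++ [M P (σ P a)] := by
    intro a b i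
    induction i with
    | zero => simp [alt]
    | succ i ih =>
      rw [show 2 * (i + 1) = 2 * i + 1 + 1 from by ring]
      simp only [alt, List.map_cons, List.cons_append] at ih ⊢
      rw [ih]
  have hw0 : wd P (alt s t n) = wd P (alt t s n) := by
    rw [← mul_inv_eq_one, wd_alt_inv, hn, pow_orderOf_eq_one]
  have hV : ∀ K, 2 * K ≤ n → K + 1 < n → 1 ≤ K → Se.Vanish K := by
    intro K hK hK1 hK0
    have hT1 : Se.T = M P (σ P s * σ P t) := by
      have := (hTpow 1).trans (hM s t 2 hab (by omega))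
      simpa [alt] using this
    refine ⟨fun k hk hkK => ?_, fun k hk hkK => ?_, fun k hk hkK => ?_⟩ <;>
      obtain ⟨i, rfl⟩ : ∃ i, k = i + 1 := ⟨k - 1, by omega⟩
    · rw [pow_succ, hTpow, hM s t _ hab (by omega), hT1]
      refine trace_M_mul P ?_
      rw [show 2 * i = 2 * i + 0 from rfl, wd_alt_add]
      simp only [alt, wd_nil, mul_one, ← pow_succ]
      exact pow_ne_one_of_lt_orderOf (by omega) (by omega)
    · rw [pow_succ, ← mul_assoc, show Se.a = M P (σ P s) from rfl, hTpow]
      rw [Se.τ_comm]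
      cases i with
      | zero =>
        simp only [Nat.mul_zero, alt, List.map_nil, List.prod_nil, mul_one, hT1]
        refine trace_M_mul P ?_
        intro h
        have := congrArg (sgn P) h
        rw [map_mul, map_one] at this
        have h2 := sgn_wd P [s, t]
        have h3 := sgn_wd P [s]
        simp at h2 h3
        rw [map_mul, h2, h3] at this
        exact absurd this (by decide)
      | succ i =>
        have e : M P (σ P s) * ((alt s t (2 * (i + 1))).map fun r => M P (σ P r)).prod
            = ((qpar P s : ℝ) - 1) • M P (wd P (alt s t (2 * (i + 1))))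
              + (qpar P s : ℝ) • M P (wd P (alt t s (2 * i + 1))) := by
          rw [← hM s t (2 * (i + 1)) hab (by omega), ← hM t s (2 * i + 1) hba (by omega),
            show 2 * (i + 1) = 2 * i + 1 + 1 from by ring, alt, List.map_cons, List.prod_cons, ← mul_assoc,
            M_σ_sq, add_mul, smul_mul_assoc, smul_mul_assoc, one_mul]
        rw [e, mul_add, mul_smul_comm, mul_smul_comm, map_add, map_smul, map_smul, hT1]
        have z1 : Matrix.trace (M P (σ P s * σ P t) * M P (wd P (alt s t (2 * (i + 1))))) = 0 := by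
          refine trace_M_mul P ?_
          rw [show 2 * (i + 1) = 2 * (i + 1) + 0 from rfl, wd_alt_add]
          simp only [alt, wd_nil, mul_one, ← pow_succ']
          exact pow_ne_one_of_lt_orderOf (by omega) (by omega)
        have z2 : Matrix.trace (M P (σ P s * σ P t) * M P (wd P (alt t s (2 * i + 1)))) = 0 := by
          refine trace_M_mul P ?_
          intro h
          have := parity P (L := [s, t] ++ alt t s (2 * i + 1)) (L' := []) (by simpa [wd_append, mul_assoc] using h)
          rw [List.length_append, length_alt] at this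
          simp at this
        show _ • Matrix.trace _ + _ • Matrix.trace _ = (0 : ℝ)
        rw [z1, z2, smul_zero, smul_zero, add_zero]
    · rw [pow_succ', mul_assoc, hTpow, show Se.b = M P (σ P t) from rfl, Se.τ_comm, mul_assoc]
      have hTT : M P (σ P t) * Se.T = M P (σ P t * σ P s * σ P t) ∨ n = 2 := by
        by_cases h3 : 3 ≤ n
        · left
          have := hM t s 3 hba h3
          simp only [alt, List.map_cons, List.map_nil, List.prod_cons, List.prod_nil, mul_one, wd_cons,
            wd_nil, ← mul_assoc] at this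
          rw [← this]
          show M P (σ P t) * (M P (σ P s) * M P (σ P t)) = _
          simp only [mul_assoc]
        · right; omega
      rcases hTT with hTT | hn2'
      · rw [hTT, hM s t _ hab (by omega)]
        refine trace_M_mul P ?_
        intro h
        have := parity P (L := alt s t (2 * i) ++ [t, s, t]) (L' := []) (by simpa [wd_append, mul_assoc] using h)
        rw [List.length_append, length_alt] at this
        simp at this
      · omega
  rcases Nat.even_or_odd' n with ⟨h, he | ho⟩
  · rcases (show h ≤ 1 ∨ 2 ≤ h by omega) with h1 | h2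
    · left; omega
    have hbr : Se.T ^ h = Se.T' ^ h := by
      rw [hTpow, hT'pow, hM s t _ hab (by omega), hM t s _ hba (by omega), ← he, hw0]
    have := Se.even_bound h2 (hV (h - 1) (by omega) (by omega) (by omega)) hbr
    rcases (show n = 4 ∨ n = 6 ∨ n = 8 by omega) with h | h | h <;> simp [h]
  · rcases (show h ≤ 1 ∨ 2 ≤ h by omega) with h1 | h2
    · rcases (show n = 3 by omega) with h; simp [h]
    exfalso
    have hbr : Se.T ^ h * Se.a = Se.T' ^ h * Se.b := by
      have e1 : Se.T ^ h * Se.a = ((alt s t n).map fun r => M P (σ P r)).prod := by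
        rw [ho, hsnoc, List.prod_append, ← hTpow]; simp [hSe, setup]
      have e2 : Se.T' ^ h * Se.b = ((alt t s n).map fun r => M P (σ P r)).prod := by
        rw [ho, hsnoc, List.prod_append, ← hT'pow]; simp [hSe, setup]
      rw [e1, e2, hM s t _ hab le_rfl, hM t s _ hba le_rfl, hw0]
    have hqr : Se.q = Se.r := by
      have h1 := congrArg (fun X => Matrix.mulVec X (1 : G ⧸ P.B → ℝ))
        ((hM s t n hab le_rfl).trans ((congrArg (M P) hw0).trans (hM t s n hba le_rfl).symm))
      simp only [M_ones] at h1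
      have h2 := congrFun h1 ((1 : G) : G ⧸ P.B)
      simp only [Pi.smul_apply, Pi.one_apply, smul_eq_mul, mul_one] at h2
      have hprod : ∀ a b : P.S, ∀ i, ((alt a b (2 * i + 1)).map fun r => (qpar P r : ℝ)).prod
          = (qpar P a : ℝ) * ((qpar P a : ℝ) * qpar P b) ^ i := by
        intro a b i
        induction i with
        | zero => simp [alt]
        | succ i ih =>
          rw [show 2 * (i + 1) + 1 = 2 * i + 1 + 1 + 1 from by ring, alt, alt]
          simp only [List.map_cons, List.prod_cons, ih, pow_succ]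
          ring
      rw [ho, hprod, hprod, mul_comm ((qpar P t : ℝ)) (qpar P s : ℝ)] at h2
      have hpos : ((qpar P s : ℝ) * qpar P t) ^ h ≠ 0 := by
        have := two_le_qpar P s
        have := two_le_qpar P t
        positivity
      exact_mod_cast mul_right_cancel₀ hpos h2
    exact Se.odd_bound h2 hqr (hV h (by omega) (by omega) (by omega)) hbr

end RankTwo

theorem index_of_rank_two (h2 : P.rank = 2) :
    ((P.B ⊓ P.N).subgroupOf P.N).index ∈ ({4, 6, 8, 12, 16} : Set ℕ) := by
  have : Finite (W P) := Quotient.finite _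
  obtain ⟨x, y, hxy, hS⟩ := Set.ncard_eq_two.1 h2
  set s : P.S := ⟨x, by rw [hS]; simp⟩
  set t : P.S := ⟨y, by rw [hS]; simp⟩
  have hst : s ≠ t := fun h => hxy (congrArg Subtype.val h)
  have hall : ∀ r : P.S, r = s ∨ r = t := fun r => by
    have := r.2
    simp only [hS, Set.mem_insert_iff, Set.mem_singleton_iff] at this
    exact this.imp (fun h => Subtype.ext h) (fun h => Subtype.ext h)
  have hn := feit_higman P s t hst hall
  have hc := card_W P s t hst hall
  rw [Subgroup.index_eq_card, hc]
  simp only [Set.mem_insert_iff, Set.mem_singleton_iff] at hn ⊢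
  omega

end CfsgLib.FeitHigman
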